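import Mathlib

/-!
# A group of order `2p³` in `PSL(n, p)` with trivial centralizer

The generalized dihedral group `(ℤ/p)³ ⋊ C₂` acts on `F^k ⊕ F^(k+1)` (`k` odd): the kernel acts through
`L(C) = [[1, 0], [C, 1]]` with `C` a combination of the two Kronecker maps and one more matrix, and `C₂` acts through
`diag(1, -1)`. The two Kronecker maps force the centralizer to be scalar.
-/

set_option autoImplicit false
set_option linter.unusedSectionVars false
set_option linter.unusedVariables false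
set_option linter.unusedSimpArgs false

namespace Cfsg.Agent.Lib.GenDih

open Matrix

section blocks

variable {F : Type*} [Field F] {k : ℕ}

/-- The index type. -/
abbrev Idx (k : ℕ) := Fin k ⊕ Fin (k + 1)

/-- Lower unipotent block matrix. -/
def LL (C : Matrix (Fin (k + 1)) (Fin k) F) : Matrix (Idx k) (Idx k) F := fromBlocks 1 0 C 1

/-- The involution. -/
def TT : Matrix (Idx k) (Idx k) F := fromBlocks 1 0 0 (-1)

theorem LL_mul (C D : Matrix (Fin (k + 1)) (Fin k) F) : LL C * LL D = LL (C + D) := by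
  simp [LL, fromBlocks_multiply, add_comm]

theorem LL_zero : LL (0 : Matrix (Fin (k + 1)) (Fin k) F) = 1 := by
  simp [LL, fromBlocks_one]

theorem det_LL (C : Matrix (Fin (k + 1)) (Fin k) F) : det (LL C) = 1 := by
  simp [LL, det_fromBlocks_zero₁₂]

theorem TT_mul_TT : (TT : Matrix (Idx k) (Idx k) F) * TT = 1 := by
  simp [TT, fromBlocks_multiply, fromBlocks_one]

theorem det_TT (hk : Even (k + 1)) : det (TT : Matrix (Idx k) (Idx k) F) = 1 := by
  simp only [TT, det_fromBlocks_zero₁₂, det_one, one_mul, det_neg, Fintype.card_fin]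
  rw [hk.neg_one_pow]; simp

theorem TT_LL (C : Matrix (Fin (k + 1)) (Fin k) F) : TT * LL C * TT = LL (-C) := by
  simp [TT, LL, fromBlocks_multiply]

theorem LL_pow (C : Matrix (Fin (k + 1)) (Fin k) F) (m : ℕ) : LL C ^ m = LL (m • C) := by
  induction m with
  | zero => simp [LL_zero]
  | succ m ih => rw [pow_succ, ih, LL_mul, succ_nsmul]

/-- First Kronecker map. -/
def X₀ : Matrix (Fin (k + 1)) (Fin k) F := fun i j => if (i : ℕ) = j then 1 else 0

/-- Second Kronecker map. -/
def Y₀ : Matrix (Fin (k + 1)) (Fin k) F := fun i j => if (i : ℕ) = j + 1 then 1 else 0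

/-- A third matrix. -/
def Z₀ : Matrix (Fin (k + 1)) (Fin k) F := fun i j => if (j : ℕ) = 0 ∧ (i : ℕ) = 2 then 1 else 0

/-- The coefficient map. -/
def CC (v : Fin 3 → F) : Matrix (Fin (k + 1)) (Fin k) F := v 0 • X₀ + v 1 • Y₀ + v 2 • Z₀

theorem CC_add (v w : Fin 3 → F) : (CC (v + w) : Matrix (Fin (k + 1)) (Fin k) F) = CC v + CC w := by
  simp only [CC, Pi.add_apply, add_smul]; abel

theorem CC_zero : (CC 0 : Matrix (Fin (k + 1)) (Fin k) F) = 0 := by
  simp [CC]

theorem X₀_mul (β : Matrix (Fin k) (Fin (k + 1)) F) (i : Fin (k + 1)) (hi : (i : ℕ) < k) (j : Fin (k + 1)) :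
    ((X₀ : Matrix (Fin (k + 1)) (Fin k) F) * β) i j = β ⟨i, hi⟩ j := by
  rw [Matrix.mul_apply, Finset.sum_eq_single ⟨i, hi⟩]
  · simp [X₀]
  · intro b _ hb
    have : ¬ (i : ℕ) = b := fun h => hb (Fin.ext h.symm)
    simp [X₀, this]
  · simp

theorem X₀_mul' (α : Matrix (Fin k) (Fin k) F) (i : Fin (k + 1)) (hi : (i : ℕ) < k) (j : Fin k) :
    ((X₀ : Matrix (Fin (k + 1)) (Fin k) F) * α) i j = α ⟨i, hi⟩ j := by
  rw [Matrix.mul_apply, Finset.sum_eq_single ⟨i, hi⟩]
  · simp [X₀]
  · intro b _ hb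
    have : ¬ (i : ℕ) = b := fun h => hb (Fin.ext h.symm)
    simp [X₀, this]
  · simp

theorem X₀_mul'' (α : Matrix (Fin k) (Fin k) F) (j : Fin k) :
    ((X₀ : Matrix (Fin (k + 1)) (Fin k) F) * α) ⟨k, by omega⟩ j = 0 := by
  rw [Matrix.mul_apply]
  apply Finset.sum_eq_zero
  intro b _
  have : ¬ k = (b : ℕ) := by have := b.2; omega
  simp [X₀, this]

theorem mul_X₀ (δ : Matrix (Fin (k + 1)) (Fin (k + 1)) F) (i : Fin (k + 1)) (j : Fin k) :
    (δ * (X₀ : Matrix (Fin (k + 1)) (Fin k) F)) i j = δ i ⟨j, by have := j.2; omega⟩ := by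
  rw [Matrix.mul_apply, Finset.sum_eq_single ⟨j, by have := j.2; omega⟩]
  · simp [X₀]
  · intro b _ hb
    have : ¬ (b : ℕ) = j := fun h => hb (Fin.ext h)
    simp [X₀, this]
  · simp

theorem Y₀_mul (α : Matrix (Fin k) (Fin k) F) (i : Fin k) (j : Fin k) :
    ((Y₀ : Matrix (Fin (k + 1)) (Fin k) F) * α) ⟨i + 1, by have := i.2; omega⟩ j = α i j := by
  rw [Matrix.mul_apply, Finset.sum_eq_single i]
  · simp [Y₀]
  · intro b _ hb
    have : ¬ (i : ℕ) = b := fun h => hb (Fin.ext h.symm)
    simp [Y₀, this]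
  · simp

theorem Y₀_mul0 (α : Matrix (Fin k) (Fin k) F) (j : Fin k) :
    ((Y₀ : Matrix (Fin (k + 1)) (Fin k) F) * α) ⟨0, by omega⟩ j = 0 := by
  rw [Matrix.mul_apply]
  apply Finset.sum_eq_zero
  intro b _
  simp [Y₀]

theorem mul_Y₀ (δ : Matrix (Fin (k + 1)) (Fin (k + 1)) F) (i : Fin (k + 1)) (j : Fin k) :
    (δ * (Y₀ : Matrix (Fin (k + 1)) (Fin k) F)) i j = δ i ⟨j + 1, by have := j.2; omega⟩ := by
  rw [Matrix.mul_apply, Finset.sum_eq_single ⟨j + 1, by have := j.2; omega⟩]
  · simp [Y₀]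
  · intro b _ hb
    have : ¬ (b : ℕ) = j + 1 := fun h => hb (Fin.ext h)
    simp [Y₀, this]
  · simp

/-- The Toeplitz argument, on natural number indices. -/
theorem toeplitz (k : ℕ) (D : ℕ → ℕ → F)
    (h1 : ∀ i j, i < k → j < k → D (i + 1) (j + 1) = D i j)
    (h2 : ∀ j, j < k → D k j = 0)
    (h3 : ∀ j, j < k → D 0 (j + 1) = 0) :
    ∀ i j, i ≤ k → j ≤ k → D i j = if i = j then D 0 0 else 0 := by
  have up : ∀ d i j, i + d = k → j < i → D i j = 0 := by
    intro d
    induction d with
    | zero =>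
      intro i j h hj
      have : i = k := by omega
      subst this
      exact h2 j hj
    | succ d ih =>
      intro i j h hj
      rw [← h1 i j (by omega) (by omega)]
      exact ih (i + 1) (j + 1) (by omega) (by omega)
  have low : ∀ i j, i < j → j ≤ k → D i j = 0 := by
    intro i
    induction i with
    | zero =>
      intro j hj hk
      obtain ⟨j, rfl⟩ : ∃ j', j = j' + 1 := ⟨j - 1, by omega⟩
      exact h3 j (by omega)
    | succ i ih =>
      intro j hj hk
      obtain ⟨j, rfl⟩ : ∃ j', j = j' + 1 := ⟨j - 1, by omega⟩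
      rw [h1 i j (by omega) (by omega)]
      exact ih j (by omega) (by omega)
  have diag : ∀ i, i ≤ k → D i i = D 0 0 := by
    intro i
    induction i with
    | zero => simp
    | succ i ih =>
      intro hi
      rw [h1 i i (by omega) (by omega)]
      exact ih (by omega)
  intro i j hi hj
  by_cases hij : i = j
  · subst hij; simp [diag i hi]
  · rw [if_neg hij]
    rcases lt_or_gt_of_ne hij with h | h
    · exact low i j h hj
    · exact up (k - i) i j (by omega) h

/-- Matrices commuting with the Kronecker data have scalar diagonal blocks. -/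
theorem kronecker {α : Matrix (Fin k) (Fin k) F} {δ : Matrix (Fin (k + 1)) (Fin (k + 1)) F}
    (hX : δ * (X₀ : Matrix (Fin (k + 1)) (Fin k) F) = (X₀ : Matrix (Fin (k + 1)) (Fin k) F) * α) (hY : δ * (Y₀ : Matrix (Fin (k + 1)) (Fin k) F) = (Y₀ : Matrix (Fin (k + 1)) (Fin k) F) * α) :
    ∃ c : F, α = c • 1 ∧ δ = c • 1 := by
  classical
  set D : ℕ → ℕ → F := fun i j => if h : i ≤ k ∧ j ≤ k then δ ⟨i, by omega⟩ ⟨j, by omega⟩ else 0 with hD
  have hval : ∀ i j (hi : i ≤ k) (hj : j ≤ k), D i j = δ ⟨i, by omega⟩ ⟨j, by omega⟩ := by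
    intro i j hi hj
    simp only [hD, dif_pos (And.intro hi hj)]
  have e1 : ∀ i j (hi : i < k) (hj : j < k), δ ⟨i, by omega⟩ ⟨j, by omega⟩ = α ⟨i, hi⟩ ⟨j, hj⟩ := by
    intro i j hi hj
    have := congrFun (congrFun hX ⟨i, by omega⟩) ⟨j, hj⟩
    rw [mul_X₀, X₀_mul' α _ hi] at this
    exact this
  have e2 : ∀ i j (hi : i < k) (hj : j < k), δ ⟨i + 1, by omega⟩ ⟨j + 1, by omega⟩ = α ⟨i, hi⟩ ⟨j, hj⟩ := by
    intro i j hi hj
    have := congrFun (congrFun hY ⟨i + 1, by omega⟩) ⟨j, hj⟩
    rw [mul_Y₀] at this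
    rw [this]
    exact Y₀_mul α ⟨i, hi⟩ ⟨j, hj⟩
  have e3 : ∀ j (hj : j < k), δ ⟨k, by omega⟩ ⟨j, by omega⟩ = 0 := by
    intro j hj
    have := congrFun (congrFun hX ⟨k, by omega⟩) ⟨j, hj⟩
    rw [mul_X₀, X₀_mul''] at this
    exact this
  have e4 : ∀ j (hj : j < k), δ ⟨0, by omega⟩ ⟨j + 1, by omega⟩ = 0 := by
    intro j hj
    have := congrFun (congrFun hY ⟨0, by omega⟩) ⟨j, hj⟩
    rw [mul_Y₀, Y₀_mul0] at this
    exact this
  have T := toeplitz k D
    (by
      intro i j hi hj
      rw [hval _ _ (by omega) (by omega), hval _ _ (by omega) (by omega), e1 i j hi hj]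
      exact e2 i j hi hj)
    (by
      intro j hj
      rw [hval _ _ (by omega) (by omega)]
      exact e3 j hj)
    (by
      intro j hj
      rw [hval _ _ (by omega) (by omega)]
      exact e4 j hj)
  refine ⟨D 0 0, ?_, ?_⟩
  · ext i j
    have h1 := e1 i j i.2 j.2
    have h2 := T i j (by have := i.2; omega) (by have := j.2; omega)
    rw [hval _ _ (by have := i.2; omega) (by have := j.2; omega)] at h2
    simp only [Fin.eta] at h1
    rw [← h1, h2]
    by_cases hij : i = j
    · subst hij; simp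
    · have : ¬ (i : ℕ) = j := fun h => hij (Fin.ext h)
      simp [this, hij]
  · ext i j
    have h2 := T i j (by have := i.2; omega) (by have := j.2; omega)
    rw [hval _ _ (by have := i.2; omega) (by have := j.2; omega)] at h2
    simp only [Fin.eta] at h2
    rw [h2]
    by_cases hij : i = j
    · subst hij; simp
    · have : ¬ (i : ℕ) = j := fun h => hij (Fin.ext h)
      simp [this, hij]

end blocks

section group

variable {F : Type*} [Field F] {k : ℕ}

/-- Lower unipotent, as an element of `SL`. -/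
def slL (C : Matrix (Fin (k + 1)) (Fin k) F) : SpecialLinearGroup (Idx k) F := ⟨LL C, det_LL C⟩

/-- The involution, as an element of `SL`. -/
def slT (hk : Even (k + 1)) : SpecialLinearGroup (Idx k) F := ⟨TT, det_TT hk⟩

theorem slT_sq (hk : Even (k + 1)) : (slT hk : SpecialLinearGroup (Idx k) F) * slT hk = 1 := by
  apply Subtype.ext
  exact TT_mul_TT

end group

section transport

variable {ι κ : Type*} [Fintype ι] [Fintype κ] [DecidableEq ι] [DecidableEq κ] {R : Type*} [CommRing R]

/-- Reindexing `SL`. -/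
def slEquiv (e : ι ≃ κ) : SpecialLinearGroup ι R ≃* SpecialLinearGroup κ R where
  toFun A := ⟨Matrix.reindex e e A.1, by rw [Matrix.det_reindex_self]; exact A.2⟩
  invFun A := ⟨Matrix.reindex e.symm e.symm A.1, by rw [Matrix.det_reindex_self]; exact A.2⟩
  left_inv A := by
    apply Subtype.ext
    ext i j
    simp
  right_inv A := by
    apply Subtype.ext
    ext i j
    simp
  map_mul' A B := by
    apply Subtype.ext
    change Matrix.reindex e e (A.1 * B.1) = Matrix.reindex e e A.1 * Matrix.reindex e e B.1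
    simp [Matrix.submatrix_mul_equiv]

theorem map_center_equiv {G G' : Type*} [_root_.Group G] [_root_.Group G'] (e : G ≃* G') :
    (Subgroup.center G).map e.toMonoidHom = Subgroup.center G' := by
  ext x
  constructor
  · rintro ⟨y, hy, rfl⟩
    rw [Subgroup.mem_center_iff]
    intro z
    obtain ⟨w, rfl⟩ := e.surjective z
    change e w * e y = e y * e w
    rw [← map_mul, ← map_mul, (Subgroup.mem_center_iff.mp hy) w]
  · intro hx
    refine ⟨e.symm x, ?_, by simp⟩
    rw [SetLike.mem_coe, Subgroup.mem_center_iff]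
    intro z
    apply e.injective
    simp only [map_mul, MulEquiv.apply_symm_apply]
    exact (Subgroup.mem_center_iff.mp hx) (e z)

/-- Reindexing `PSL`. -/
def pslEquiv (e : ι ≃ κ) : ProjectiveSpecialLinearGroup ι R ≃* ProjectiveSpecialLinearGroup κ R :=
  QuotientGroup.congr _ _ (slEquiv e) (map_center_equiv (slEquiv e))

end transport

section main

variable (p : ℕ) [Fact p.Prime]

local notation "𝔽" => ZMod p

/-- The action of the units of `ℤ` on the additive group. -/
def act : ℤˣ →* AddMonoid.End (Fin 3 → 𝔽) := DistribMulAction.toAddMonoidEnd ℤˣ (Fin 3 → 𝔽)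

/-- From an additive action to automorphisms of the multiplicative group. -/
def psi : ℤˣ →* MulAut (Multiplicative (Fin 3 → 𝔽)) where
  toFun l :=
    { toFun := fun a => Multiplicative.ofAdd (act p l (Multiplicative.toAdd a))
      invFun := fun a => Multiplicative.ofAdd (act p l⁻¹ (Multiplicative.toAdd a))
      left_inv := fun a => by
        have h1 : act p l⁻¹ (act p l (Multiplicative.toAdd a)) = (act p l⁻¹ * act p l) (Multiplicative.toAdd a) := rfl
        simp only [toAdd_ofAdd]
        rw [h1, ← map_mul, inv_mul_cancel, map_one]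
        rfl
      right_inv := fun a => by
        have h1 : act p l (act p l⁻¹ (Multiplicative.toAdd a)) = (act p l * act p l⁻¹) (Multiplicative.toAdd a) := rfl
        simp only [toAdd_ofAdd]
        rw [h1, ← map_mul, mul_inv_cancel, map_one]
        rfl
      map_mul' := fun a b => by
        simp only [toAdd_mul, map_add, ofAdd_add] }
  map_one' := by
    apply MulEquiv.ext
    intro a
    change Multiplicative.ofAdd (act p 1 (Multiplicative.toAdd a)) = a
    rw [map_one]
    rfl
  map_mul' l l' := by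
    apply MulEquiv.ext
    intro a
    change Multiplicative.ofAdd (act p (l * l') (Multiplicative.toAdd a)) =
      Multiplicative.ofAdd (act p l (act p l' (Multiplicative.toAdd a)))
    rw [map_mul]
    rfl

theorem psi_neg (v : Fin 3 → 𝔽) :
    psi p (-1) (Multiplicative.ofAdd v) = Multiplicative.ofAdd (-v) := by
  change Multiplicative.ofAdd ((-1 : ℤˣ) • v) = _
  simp

theorem psi_one (v : Fin 3 → 𝔽) :
    psi p 1 (Multiplicative.ofAdd v) = Multiplicative.ofAdd v := by
  rw [map_one]; rfl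

/-- The group of order `2p³`. -/
abbrev HH := Multiplicative (Fin 3 → 𝔽) ⋊[psi p] ℤˣ

theorem card_HH : Nat.card (HH p) = 2 * p ^ 3 := by
  have : Nat.card (HH p) = Nat.card (Multiplicative (Fin 3 → 𝔽)) * Nat.card ℤˣ := by
    rw [Nat.card_congr (SemidirectProduct.equivProd (φ := psi p)), Nat.card_prod]
  rw [this]
  have h1 : Nat.card (Multiplicative (Fin 3 → 𝔽)) = p ^ 3 := by
    change Nat.card (Fin 3 → 𝔽) = _
    rw [Nat.card_fun]
    simp [Nat.card_eq_fintype_card, ZMod.card]
  have h2 : Nat.card ℤˣ = 2 := by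
    rw [Nat.card_eq_fintype_card]; rfl
  rw [h1, h2]; ring

variable {p} {k : ℕ}

/-- The kernel part of the representation. -/
def f₁ : Multiplicative (Fin 3 → 𝔽) →* SpecialLinearGroup (Idx k) 𝔽 where
  toFun a := slL (CC (Multiplicative.toAdd a))
  map_one' := by
    apply Subtype.ext
    change LL (CC (0 : Fin 3 → 𝔽)) = 1
    rw [CC_zero, LL_zero]
  map_mul' a b := by
    apply Subtype.ext
    change LL (CC (Multiplicative.toAdd a + Multiplicative.toAdd b)) =
      LL (CC (Multiplicative.toAdd a)) * LL (CC (Multiplicative.toAdd b))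
    rw [CC_add, LL_mul]

/-- The involution part of the representation. -/
def f₂ (hk : Even (k + 1)) : ℤˣ →* SpecialLinearGroup (Idx k) 𝔽 where
  toFun u := if u = 1 then 1 else slT hk
  map_one' := by simp
  map_mul' a b := by
    rcases Int.units_eq_one_or a with rfl | rfl <;> rcases Int.units_eq_one_or b with rfl | rfl
    · simp
    · simp
    · simp
    · have : (-1 : ℤˣ) ≠ 1 := by decide
      simp only [mul_neg, mul_one, neg_neg, if_true, if_neg this]
      exact (slT_sq hk).symm

theorem f₂_neg (hk : Even (k + 1)) : f₂ (p := p) hk (-1) = slT hk := by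
  have : (-1 : ℤˣ) ≠ 1 := by decide
  change (if (-1 : ℤˣ) = 1 then 1 else slT hk) = _
  rw [if_neg this]

/-- The representation into `SL`. -/
def rho (hk : Even (k + 1)) : HH p →* SpecialLinearGroup (Idx k) 𝔽 :=
  SemidirectProduct.lift f₁ (f₂ hk) (by
    intro u
    apply MonoidHom.ext
    intro a
    apply Subtype.ext
    rcases Int.units_eq_one_or u with rfl | rfl
    · obtain ⟨v, rfl⟩ := Multiplicative.ofAdd.surjective a
      change (f₁ (psi p 1 (Multiplicative.ofAdd v)) : SpecialLinearGroup (Idx k) 𝔽).1 =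
        (f₂ hk 1 * f₁ (Multiplicative.ofAdd v) * (f₂ hk 1)⁻¹ : SpecialLinearGroup (Idx k) 𝔽).1
      rw [psi_one, map_one]
      simp
    · obtain ⟨v, rfl⟩ := Multiplicative.ofAdd.surjective a
      change (f₁ (psi p (-1) (Multiplicative.ofAdd v)) : SpecialLinearGroup (Idx k) 𝔽).1 =
        (f₂ hk (-1) * f₁ (Multiplicative.ofAdd v) * (f₂ hk (-1))⁻¹ : SpecialLinearGroup (Idx k) 𝔽).1
      rw [psi_neg, f₂_neg]
      change LL (CC (-v)) = (slT hk * slL (CC v) * (slT hk)⁻¹ : SpecialLinearGroup (Idx k) 𝔽).1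
      have hinv : (slT hk : SpecialLinearGroup (Idx k) 𝔽)⁻¹ = slT hk := inv_eq_of_mul_eq_one_left (slT_sq hk)
      rw [hinv]
      change _ = TT * LL (CC v) * TT
      rw [TT_LL]
      congr 1
      have := CC_add (k := k) v (-v)
      rw [add_neg_cancel, CC_zero] at this
      exact (neg_eq_of_add_eq_zero_right this.symm).symm)

theorem rho_inl (hk : Even (k + 1)) (v : Fin 3 → 𝔽) :
    (rho hk (SemidirectProduct.inl (Multiplicative.ofAdd v)) : SpecialLinearGroup (Idx k) 𝔽).1 =
      LL (CC v) := by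
  simp [rho]
  rfl

theorem rho_inr (hk : Even (k + 1)) :
    (rho hk (SemidirectProduct.inr (-1)) : SpecialLinearGroup (Idx k) 𝔽).1 = TT := by
  simp [rho, f₂_neg]
  rfl

end main

section final

variable {p : ℕ} [Fact p.Prime] {k : ℕ}

local notation "𝔽" => ZMod p

/-- The representation into `PSL`. -/
def phi (hk : Even (k + 1)) : HH p →* ProjectiveSpecialLinearGroup (Idx k) 𝔽 :=
  (QuotientGroup.mk' (Subgroup.center (SpecialLinearGroup (Idx k) 𝔽))).comp (rho hk)

theorem comm_scalar (a g : SpecialLinearGroup (Idx k) 𝔽)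
    (h : (QuotientGroup.mk' (Subgroup.center (SpecialLinearGroup (Idx k) 𝔽))) a *
        (QuotientGroup.mk' (Subgroup.center (SpecialLinearGroup (Idx k) 𝔽))) g =
      (QuotientGroup.mk' (Subgroup.center (SpecialLinearGroup (Idx k) 𝔽))) g *
        (QuotientGroup.mk' (Subgroup.center (SpecialLinearGroup (Idx k) 𝔽))) a) :
    ∃ r : 𝔽, a.1 * g.1 = r • (g.1 * a.1) := by
  rw [← map_mul, ← map_mul, eq_comm] at h
  have h1 := (QuotientGroup.eq (s := Subgroup.center (SpecialLinearGroup (Idx k) 𝔽))).mp h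
  obtain ⟨r, -, hr⟩ := Matrix.SpecialLinearGroup.mem_center_iff.mp h1
  refine ⟨r, ?_⟩
  have h2 : a * g = (g * a) * ((g * a)⁻¹ * (a * g)) := by group
  have h3 : (a * g).1 = (g * a).1 * ((g * a)⁻¹ * (a * g)).1 := by
    conv_lhs => rw [h2]
    rfl
  have h4 : (a.1 * g.1) = (a * g).1 := rfl
  have h5 : (g.1 * a.1) = (g * a).1 := rfl
  rw [h4, h5, h3, ← hr]
  ext i j
  simp [Matrix.scalar_apply, Matrix.smul_apply, Matrix.mul_apply, Matrix.diagonal_apply, mul_comm]

theorem g_ne_zero (g : SpecialLinearGroup (Idx k) 𝔽) : g.1 ≠ 0 := by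
  intro h
  have h1 := g.2
  rw [h] at h1
  rw [Matrix.det_zero] at h1
  exact zero_ne_one h1

theorem scalar_one_of_LL (g : SpecialLinearGroup (Idx k) 𝔽) (C : Matrix (Fin (k + 1)) (Fin k) 𝔽) (r : 𝔽)
    (h : LL C * g.1 = r • (g.1 * LL C)) : LL C * g.1 = g.1 * LL C := by
  have h1 : ∀ m : ℕ, LL C ^ m * g.1 = r ^ m • (g.1 * LL C ^ m) := by
    intro m
    induction m with
    | zero => simp
    | succ m ih =>
      rw [pow_succ' r, pow_succ', mul_assoc, ih, Matrix.mul_smul, ← mul_assoc, h, Matrix.smul_mul, smul_smul, mul_assoc,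
        ← pow_succ', pow_succ, mul_comm r]
  have h2 : LL C ^ p = 1 := by
    rw [LL_pow]
    have : p • C = 0 := by
      rw [← Nat.cast_smul_eq_nsmul 𝔽, ZMod.natCast_self, zero_smul]
    rw [this, LL_zero]
  have h3 := h1 p
  rw [h2, one_mul, mul_one, ZMod.pow_card] at h3
  have h4 : (1 - r) • g.1 = 0 := by
    rw [sub_smul, one_smul, sub_eq_zero]
    exact h3
  have h5 : r = 1 := by
    rcases smul_eq_zero.mp h4 with h | h
    · exact (sub_eq_zero.mp h).symm
    · exact absurd h (g_ne_zero g)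
  rw [h, h5, one_smul]

theorem CC_X : (CC (![1, 0, 0] : Fin 3 → 𝔽) : Matrix (Fin (k + 1)) (Fin k) 𝔽) = X₀ := by
  simp [CC]

theorem CC_Y : (CC (![0, 1, 0] : Fin 3 → 𝔽) : Matrix (Fin (k + 1)) (Fin k) 𝔽) = Y₀ := by
  simp [CC]

theorem centralizer_triv (hp : p ≠ 2) (hk : Even (k + 1)) (hk1 : 1 ≤ k)
    (x : ProjectiveSpecialLinearGroup (Idx k) 𝔽) (hx : ∀ h : HH p, phi hk h * x = x * phi hk h) : x = 1 := by
  obtain ⟨g, rfl⟩ := QuotientGroup.mk_surjective x
  have hcomm : ∀ h : HH p, ∃ r : 𝔽, (rho hk h).1 * g.1 = r • (g.1 * (rho hk h).1) := by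
    intro h
    exact comm_scalar _ _ (hx h)
  have hL : ∀ v : Fin 3 → 𝔽, LL (CC v) * g.1 = g.1 * LL (CC v) := by
    intro v
    obtain ⟨r, hr⟩ := hcomm (SemidirectProduct.inl (Multiplicative.ofAdd v))
    rw [rho_inl] at hr
    exact scalar_one_of_LL g _ r hr
  set α := g.1.toBlocks₁₁ with hα
  set β := g.1.toBlocks₁₂ with hβ
  set γ := g.1.toBlocks₂₁ with hγ
  set δ := g.1.toBlocks₂₂ with hδ
  have hg : g.1 = fromBlocks α β γ δ := (Matrix.fromBlocks_toBlocks g.1).symm
  have key : ∀ C : Matrix (Fin (k + 1)) (Fin k) 𝔽, LL C * g.1 = g.1 * LL C →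
      C * β = 0 ∧ C * α = δ * C := by
    intro C hC
    rw [hg] at hC
    simp only [LL, fromBlocks_multiply, Matrix.one_mul, Matrix.zero_mul, zero_add, add_zero, Matrix.mul_one,
      Matrix.mul_zero] at hC
    have hinj := Matrix.fromBlocks_inj.mp hC
    obtain ⟨h1, h2, h3, h4⟩ := hinj
    constructor
    · have : C * β + δ = δ := h4
      exact add_eq_right.mp this
    · have h5 : γ + C * α = γ + δ * C := by rw [← h3]; exact add_comm _ _
      exact add_left_cancel h5
  obtain ⟨hX1, hX2⟩ := key X₀ (by have := hL ![1, 0, 0]; rwa [CC_X] at this)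
  obtain ⟨hY1, hY2⟩ := key Y₀ (by have := hL ![0, 1, 0]; rwa [CC_Y] at this)
  have hβ0 : β = 0 := by
    ext i j
    have h := congrFun (congrFun hX1 ⟨i, by have := i.2; omega⟩) j
    rw [X₀_mul β _ i.2] at h
    exact h
  obtain ⟨c, hc1, hc2⟩ := kronecker hX2.symm hY2.symm
  obtain ⟨r, hr⟩ := hcomm (SemidirectProduct.inr (-1))
  rw [rho_inr, hg, hβ0] at hr
  simp only [TT, fromBlocks_multiply, Matrix.one_mul, Matrix.zero_mul, zero_add, add_zero, Matrix.mul_one,
    Matrix.mul_zero, Matrix.neg_mul, Matrix.mul_neg, fromBlocks_smul] at hr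
  obtain ⟨h1, h2, h3, h4⟩ := Matrix.fromBlocks_inj.mp hr
  have hdet : c ^ (k + (k + 1)) = 1 := by
    have := g.2
    rw [hg, hβ0, hc1, hc2, Matrix.det_fromBlocks_zero₁₂] at this
    simp only [Matrix.det_smul, det_one, mul_one, Fintype.card_fin] at this
    rw [pow_add]; exact this
  have hc0 : c ≠ 0 := by
    rintro rfl
    rw [zero_pow (by omega)] at hdet
    exact zero_ne_one hdet
  have hr1 : r = 1 := by
    have h5 : (-δ) 0 0 = (r • -δ) 0 0 := congrFun (congrFun h4 0) 0
    rw [hc2] at h5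
    simp only [Matrix.neg_apply, Matrix.smul_apply, Matrix.one_apply_eq, smul_eq_mul, mul_one, mul_neg,
      neg_inj] at h5
    have h6 : c * (r - 1) = 0 := by linear_combination -h5
    rcases mul_eq_zero.mp h6 with h | h
    · exact absurd h hc0
    · exact sub_eq_zero.mp h
  rw [hr1, one_smul] at h3
  have h2' : (2 : 𝔽) ≠ 0 := by
    intro h
    have h7 : ((2 : ℕ) : 𝔽) = 0 := by exact_mod_cast h
    rw [ZMod.natCast_eq_zero_iff] at h7
    exact hp ((Nat.prime_dvd_prime_iff_eq (Fact.out) Nat.prime_two).mp h7)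
  have hγ0 : γ = 0 := by
    have h8 : (2 : 𝔽) • γ = 0 := by
      rw [two_smul]
      have : -γ = γ := h3
      nth_rewrite 1 [← this]
      exact neg_add_cancel γ
    rcases smul_eq_zero.mp h8 with h | h
    · exact absurd h h2'
    · exact h
  have hgc : g.1 = c • 1 := by
    rw [hg, hβ0, hγ0, hc1, hc2]
    rw [← Matrix.fromBlocks_one, Matrix.fromBlocks_smul]
    simp
  have hcen : g ∈ Subgroup.center (SpecialLinearGroup (Idx k) 𝔽) := by
    rw [Matrix.SpecialLinearGroup.mem_center_iff]
    refine ⟨c, ?_, ?_⟩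
    · simpa [Fintype.card_sum] using hdet
    · rw [hgc]
      ext i j
      simp [Matrix.scalar_apply, Matrix.smul_apply, Matrix.diagonal_apply, Matrix.one_apply]
  exact (QuotientGroup.eq_one_iff g).mpr hcen

theorem phi_injective (hp : p ≠ 2) (hk : Even (k + 1)) (hk2 : 2 ≤ k) : Function.Injective (phi (p := p) hk) := by
  rw [injective_iff_map_eq_one]
  intro h hh
  have hcen : rho hk h ∈ Subgroup.center (SpecialLinearGroup (Idx k) 𝔽) := (QuotientGroup.eq_one_iff _).mp hh
  obtain ⟨r, -, hr⟩ := Matrix.SpecialLinearGroup.mem_center_iff.mp hcen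
  have hdecomp : h = SemidirectProduct.inl h.left * SemidirectProduct.inr h.right :=
    (SemidirectProduct.inl_left_mul_inr_right h).symm
  obtain ⟨v, hv⟩ := Multiplicative.ofAdd.surjective h.left
  rcases Int.units_eq_one_or h.right with hu | hu
  · rw [hdecomp, ← hv, hu, map_mul] at hr
    have hm : (rho hk (SemidirectProduct.inl (Multiplicative.ofAdd v)) *
        rho hk (SemidirectProduct.inr 1)).1 = LL (CC v) := by
      have h11 : (SemidirectProduct.inr (1 : ℤˣ) : HH p) = 1 := map_one _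
      rw [h11, map_one, mul_one, rho_inl]
    rw [hm] at hr
    have e0 : r = 1 := by
      have := congrFun (congrFun hr (Sum.inl ⟨0, by omega⟩)) (Sum.inl ⟨0, by omega⟩)
      simpa [LL, Matrix.scalar_apply] using this
    have ee : ∀ i : Fin (k + 1), CC v i ⟨0, by omega⟩ = 0 := by
      intro i
      have := congrFun (congrFun hr (Sum.inr i)) (Sum.inl ⟨0, by omega⟩)
      simpa [LL, Matrix.scalar_apply, Matrix.diagonal_apply] using this.symm
    have v0 : v 0 = 0 := by
      have := ee ⟨0, by omega⟩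
      simpa [CC, X₀, Y₀, Z₀] using this
    have v1 : v 1 = 0 := by
      have := ee ⟨1, by omega⟩
      simpa [CC, X₀, Y₀, Z₀] using this
    have v2 : v 2 = 0 := by
      have := ee ⟨2, by omega⟩
      simpa [CC, X₀, Y₀, Z₀] using this
    have hv0 : v = 0 := by
      ext i
      fin_cases i
      · exact v0
      · exact v1
      · exact v2
    rw [hdecomp, ← hv, hu, hv0]
    simp
  · exfalso
    rw [hdecomp, ← hv, hu, map_mul] at hr
    have hm : (rho hk (SemidirectProduct.inl (Multiplicative.ofAdd v)) *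
        rho hk (SemidirectProduct.inr (-1))).1 = LL (CC v) * TT := by
      change (rho hk (SemidirectProduct.inl (Multiplicative.ofAdd v))).1 *
        (rho hk (SemidirectProduct.inr (-1))).1 = _
      rw [rho_inl, rho_inr]
    rw [hm] at hr
    have e0 : r = 1 := by
      have := congrFun (congrFun hr (Sum.inl ⟨0, by omega⟩)) (Sum.inl ⟨0, by omega⟩)
      simpa [LL, TT, fromBlocks_multiply, Matrix.scalar_apply] using this
    have e1 : r = -1 := by
      have := congrFun (congrFun hr (Sum.inr 0)) (Sum.inr 0)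
      simpa [LL, TT, fromBlocks_multiply, Matrix.scalar_apply] using this
    have h2' : (2 : 𝔽) = 0 := by
      have : (1 : 𝔽) = -1 := e0.symm.trans e1
      linear_combination this
    have h7 : ((2 : ℕ) : 𝔽) = 0 := by exact_mod_cast h2'
    rw [ZMod.natCast_eq_zero_iff] at h7
    exact hp ((Nat.prime_dvd_prime_iff_eq (Fact.out) Nat.prime_two).mp h7)

/-- The main construction. -/
theorem main (p : ℕ) [Fact p.Prime] (hp : p ≠ 2) :
    ∃ (H : Type) (_ : _root_.Group H) (_ : Finite H), Nat.card H = 2 * p ^ 3 ∧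
      ∀ N : ℕ, ∃ n, N ≤ n ∧ ∃ φ : H →* Matrix.ProjectiveSpecialLinearGroup (Fin n) (ZMod p),
        Function.Injective φ ∧
          Subgroup.centralizer (φ.range : Set (Matrix.ProjectiveSpecialLinearGroup (Fin n) (ZMod p))) = ⊥ := by
  have hfin : Finite (HH p) :=
    Finite.of_equiv _ (SemidirectProduct.equivProd (φ := psi p)).symm
  refine ⟨HH p, inferInstance, hfin, card_HH p, ?_⟩
  intro N
  set k := 2 * N + 3 with hkdef
  have hk : Even (k + 1) := ⟨N + 2, by omega⟩
  refine ⟨k + (k + 1), by omega, (pslEquiv finSumFinEquiv).toMonoidHom.comp (phi hk), ?_, ?_⟩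
  · exact (pslEquiv finSumFinEquiv).injective.comp (phi_injective hp hk (by omega))
  · rw [eq_bot_iff]
    intro x hx
    rw [Subgroup.mem_centralizer_iff] at hx
    rw [Subgroup.mem_bot]
    have h1 : (pslEquiv finSumFinEquiv).symm x = 1 := by
      apply centralizer_triv hp hk (by omega)
      intro h
      apply (pslEquiv finSumFinEquiv).injective
      have := hx ((pslEquiv finSumFinEquiv) (phi hk h)) ⟨h, rfl⟩
      simpa [map_mul] using this
    have h2 := congrArg (pslEquiv finSumFinEquiv) h1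
    simpa using h2

end final

end Cfsg.Agent.Lib.GenDih
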